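import Mathlib

/-!
Finite groups all of whose elements have prime power order: a normal solvable subgroup is a
`p`-group unless the whole group has at most two prime divisors.
-/

set_option autoImplicit false
set_option linter.style.haveILetI false

namespace CfsgLib.EPPO

open Subgroup
open scoped IsMulCommutative

variable {G : Type*} [Group G]

/-- Every nontrivial element has prime power order. -/
def PrimePowerOrders (G : Type*) [Group G] : Prop := ∀ g : G, g ≠ 1 → IsPrimePow (orderOf g)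

theorem PrimePowerOrders.eq_of_dvd (hG : PrimePowerOrders G) {g : G} {p q : ℕ} (hp : p.Prime)
    (hq : q.Prime) (h1 : p ∣ orderOf g) (h2 : q ∣ orderOf g) : p = q := by
  have hg : g ≠ 1 := fun e => hp.not_dvd_one (by rwa [e, orderOf_one] at h1)
  obtain ⟨r, k, hr, -, hk⟩ := (isPrimePow_nat_iff _).mp (hG g hg)
  rw [← hk] at h1 h2
  rw [(Nat.prime_dvd_prime_iff_eq hp hr).mp (hp.dvd_of_dvd_pow h1),
    (Nat.prime_dvd_prime_iff_eq hq hr).mp (hq.dvd_of_dvd_pow h2)]

/-- Commuting elements of prime order have the same order. -/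
theorem PrimePowerOrders.eq_of_commute (hG : PrimePowerOrders G) {x y : G} (h : Commute x y) {p q : ℕ}
    (hp : p.Prime) (hq : q.Prime) (hx : orderOf x = p) (hy : orderOf y = q) : p = q := by
  by_contra hne
  have h2 := h.orderOf_mul_eq_mul_orderOf_of_coprime (by rw [hx, hy]; exact (Nat.coprime_primes hp hq).mpr hne)
  rw [hx, hy] at h2
  exact hne (hG.eq_of_dvd hp hq (h2 ▸ dvd_mul_right p q) (h2 ▸ dvd_mul_left q p))

/-- If the norms of all elements of a coset `Z z` vanish on an abelian `p`-group and `Z = ⟨y⟩` acts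
without fixed points, the group is trivial. -/
theorem eq_bot_of_norms [Finite G] {p : ℕ} (hp : p.Prime) (A : Subgroup G) [IsMulCommutative A]
    (hA : IsPGroup p A) {q s : ℕ} (hs : s.Prime) (hqp : q ≠ p) (hq : q.Prime)
    (y z : normalizer (A : Set G)) (hy : orderOf y = q) (_hzy : z ∉ zpowers y) (hn : z * y * z⁻¹ ∈ zpowers y)
    (hord : ∀ u ∈ zpowers y, orderOf (u * z) = s)
    (hfy : ∀ a : A, A.normalizerMonoidHom y a = a → a = 1)
    (hfz : ∀ u ∈ zpowers y, ∀ a : A, A.normalizerMonoidHom (u * z) a = a → a = 1) : A = ⊥ := by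
  classical
  let T : normalizer (A : Set G) →* MulAut A := A.normalizerMonoidHom
  -- a fixed-point-free element has trivial norms
  have hnorm : ∀ (w : normalizer (A : Set G)) (n : ℕ), n ≠ 0 → w ^ n = 1 → (∀ a : A, T w a = a → a = 1) →
      ∀ a : A, ∏ i ∈ Finset.range n, T (w ^ i) a = 1 := by
    intro w n hn hw hf a
    apply hf
    rw [map_prod]
    obtain ⟨m, rfl⟩ : ∃ m, n = m + 1 := ⟨n - 1, by omega⟩
    have e : ∀ i, T w (T (w ^ i) a) = T (w ^ (i + 1)) a := fun i => by
      rw [← MulAut.mul_apply, ← map_mul, ← pow_succ']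
    simp only [e]
    rw [Finset.prod_range_succ, hw, Finset.prod_range_succ' (fun i => T (w ^ i) a), pow_zero]
  set Z := zpowers y with hZ
  have hzs : z ^ s = 1 := by
    have := pow_orderOf_eq_one ((1 : normalizer (A : Set G)) * z)
    rwa [hord 1 (one_mem _), one_mul] at this
  have hZn : ∀ u ∈ Z, z * u * z⁻¹ ∈ Z := by
    intro u hu
    obtain ⟨k, rfl⟩ := mem_zpowers_iff.mp hu
    rw [← conj_zpow]
    exact zpow_mem hn k
  have hpowZ : ∀ n : ℕ, ∀ u ∈ Z, z ^ n * u * (z ^ n)⁻¹ ∈ Z := by
    intro n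
    induction n with
    | zero => intro u hu; simpa using hu
    | succ n ih =>
      intro u hu
      have h1 := ih _ (hZn u hu)
      rwa [show z ^ n * (z * u * z⁻¹) * (z ^ n)⁻¹ = z ^ (n + 1) * u * (z ^ (n + 1))⁻¹ by
        rw [pow_succ]; group] at h1
  have hcos : ∀ u ∈ Z, ∀ n : ℕ, (u * z) ^ n * (z ^ n)⁻¹ ∈ Z := by
    intro u hu n
    induction n with
    | zero => simp
    | succ n ih =>
      have e : (u * z) ^ (n + 1) * (z ^ (n + 1))⁻¹ =
          ((u * z) ^ n * (z ^ n)⁻¹) * (z ^ n * u * (z ^ n)⁻¹) := by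
        rw [pow_succ, pow_succ]; group
      rw [e]
      exact mul_mem ih (hpowZ n u hu)
  letI : Fintype Z := Fintype.ofFinite Z
  have hnormY : ∀ b : A, ∏ u : Z, T (u : normalizer (A : Set G)) b = 1 := by
    intro b
    rw [← hnorm y (orderOf y) (orderOf_pos y).ne' (pow_orderOf_eq_one y) hfy b,
      ← Fin.prod_univ_eq_prod_range (fun i => T (y ^ i) b)]
    exact (Fintype.prod_equiv (finEquivZPowers (isOfFinOrder_of_finite y)) _ _ (fun i => rfl)).symm
  rw [eq_bot_iff]
  intro a ha
  set b : A := ⟨a, ha⟩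
  have htot : ∏ u : Z, ∏ i ∈ Finset.range s, T (((u : normalizer (A : Set G)) * z) ^ i) b = 1 :=
    Finset.prod_eq_one fun u _ => hnorm _ s hs.ne_zero (by
      rw [← hord u u.2, pow_orderOf_eq_one]) (hfz u u.2) b
  rw [Finset.prod_comm, ← Finset.mul_prod_erase _ _ (Finset.mem_range.mpr hs.pos)] at htot
  have hrest : ∀ i ∈ (Finset.range s).erase 0,
      ∏ u : Z, T (((u : normalizer (A : Set G)) * z) ^ i) b = 1 := by
    intro i hi
    rw [Finset.mem_erase, Finset.mem_range] at hi
    let σ : Z → Z := fun u => ⟨((u : normalizer (A : Set G)) * z) ^ i * (z ^ i)⁻¹, hcos u u.2 i⟩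
    have hσ : Function.Injective σ := by
      intro u v huv
      have h1 : ((u : normalizer (A : Set G)) * z) ^ i = ((v : normalizer (A : Set G)) * z) ^ i :=
        mul_right_cancel (congrArg Subtype.val huv)
      have hcop : Nat.Coprime i s := (hs.coprime_iff_not_dvd.mpr
        (Nat.not_dvd_of_pos_of_lt (Nat.pos_of_ne_zero hi.1) hi.2)).symm
      obtain ⟨j, hj⟩ := exists_pow_eq_self_of_coprime (x := (u : normalizer (A : Set G)) * z)
        ((hord u u.2).symm ▸ hcop)
      apply Subtype.ext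
      refine mul_right_cancel (b := z) ?_
      have hju : ((u : normalizer (A : Set G)) * z) ^ (i * j) = ((u : normalizer (A : Set G)) * z) ^ 1 := by
        rw [pow_mul, hj, pow_one]
      rw [pow_eq_pow_iff_modEq, hord u u.2, ← hord v v.2, ← pow_eq_pow_iff_modEq, pow_one] at hju
      rw [← hj, h1, ← pow_mul, hju]
    refine Eq.trans ?_ (hnormY (T (z ^ i) b))
    refine Fintype.prod_equiv (Equiv.ofBijective σ (Finite.injective_iff_bijective.mp hσ)) _ _ (fun u => ?_)
    show T _ b = T (((u : normalizer (A : Set G)) * z) ^ i * (z ^ i)⁻¹) (T (z ^ i) b)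
    rw [← MulAut.mul_apply, ← map_mul, inv_mul_cancel_right]
  rw [Finset.prod_eq_one hrest, mul_one] at htot
  simp only [pow_zero, map_one, MulAut.one_apply, Finset.prod_const, Finset.card_univ,
    ← Nat.card_eq_fintype_card] at htot
  rw [hZ, Nat.card_zpowers, hy] at htot
  obtain ⟨k, hk⟩ := hA b
  rw [mem_bot]
  exact orderOf_eq_one_iff.mp (Nat.eq_one_of_dvd_coprimes (((Nat.coprime_primes hq hp).mpr hqp).pow_right k)
    (orderOf_dvd_of_pow_eq_one (congrArg Subtype.val htot))
    (orderOf_dvd_of_pow_eq_one (congrArg Subtype.val hk)))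

variable [Finite G]

/-- A nontrivial normal solvable subgroup contains a nontrivial normal subgroup of prime power order. -/
theorem exists_pgroup_normal (N : Subgroup G) [N.Normal] [Group.IsSolvable N] (hN : N ≠ ⊥) :
    ∃ (p : ℕ) (P : Subgroup G), p.Prime ∧ P.Normal ∧ P ≤ N ∧ P ≠ ⊥ ∧ IsPGroup p P := by
  classical
  obtain ⟨A, hA⟩ := (Set.toFinite {A : Subgroup G | A.Normal ∧ A ≤ N ∧ A ≠ ⊥}).exists_minimal
    ⟨N, inferInstance, le_rfl, hN⟩
  obtain ⟨hAn, hAN, hA1⟩ := hA.prop
  haveI := hAn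
  haveI : Group.IsSolvable A := Group.isSolvable_of_isSolvable_injective (f := inclusion hAN) (inclusion_injective hAN)
  have hlt : ⁅A, A⁆ < A := by
    have : Nontrivial A := (Subgroup.nontrivial_iff_ne_bot A).mpr hA1
    have h1 := Group.IsSolvable.commutator_lt_top_of_nontrivial A
    rw [commutator_def] at h1
    have h2 := (Subgroup.map_lt_map_iff_of_injective A.subtype_injective).mpr h1
    rwa [Subgroup.map_commutator, ← MonoidHom.range_eq_map, Subgroup.range_subtype] at h2
  have hd : ⁅A, A⁆ = ⊥ := by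
    by_contra h
    exact hlt.not_ge (hA.le_of_le ⟨inferInstance, hlt.le.trans hAN, h⟩ hlt.le)
  haveI : IsMulCommutative A := ⟨⟨fun a b => Subtype.ext
    (mem_centralizer_iff.mp ((commutator_eq_bot_iff_le_centralizer.mp hd) b.2) a a.2)⟩⟩
  obtain ⟨p, hp, hpd⟩ := Nat.exists_prime_and_dvd (fun h => hA1 (card_eq_one.mp h))
  haveI := Fact.mk hp
  obtain ⟨S⟩ : Nonempty (Sylow p A) := inferInstance
  haveI := S.characteristic_of_normal (Subgroup.normal_of_isMulCommutative _)
  refine ⟨p, (S : Subgroup A).map A.subtype, hp, ConjAct.normal_of_characteristic_of_normal,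
    (map_subtype_le _).trans hAN, ?_, S.isPGroup'.map _⟩
  rw [Ne, map_eq_bot_iff_of_injective _ A.subtype_injective]
  exact S.ne_bot_of_dvd_card hpd

/-- A group with prime power element orders having a solvable normal subgroup which is not of prime
power order has at most two prime divisors. -/
theorem card_primeFactors_le_two (hG : PrimePowerOrders G) (R : Subgroup G) [R.Normal] [Group.IsSolvable R]
    (hR : ∀ p : ℕ, p.Prime → ¬ IsPGroup p R) : (Nat.card G).primeFactors.card ≤ 2 := by
  classical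
  have hR1 : R ≠ ⊥ := fun h => hR 2 Nat.prime_two (h ▸ IsPGroup.of_bot)
  obtain ⟨p, P₁, hp, hP₁n, hP₁R, hP₁1, hP₁p⟩ := exists_pgroup_normal R hR1
  obtain ⟨P, hP₁P, hP⟩ := (Set.toFinite {P : Subgroup G | P.Normal ∧ P ≤ R ∧ IsPGroup p P}).exists_le_maximal
    (show P₁ ∈ _ from ⟨hP₁n, hP₁R, hP₁p⟩)
  obtain ⟨hPn, hPR, hPp⟩ := hP.prop
  haveI := hPn
  haveI := Fact.mk hp
  have hP1 : P ≠ ⊥ := fun h => hP₁1 (le_bot_iff.mp (h ▸ hP₁P))
  haveI : (R.map (QuotientGroup.mk' P)).Normal := Subgroup.Normal.map inferInstance _ (QuotientGroup.mk'_surjective P)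
  haveI : Group.IsSolvable (R.map (QuotientGroup.mk' P)) :=
    Group.isSolvable_of_surjective ((QuotientGroup.mk' P).subgroupMap_surjective R)
  have hRP : R.map (QuotientGroup.mk' P) ≠ ⊥ := fun h => hR p hp (by
    rw [Subgroup.map_eq_bot_iff, QuotientGroup.ker_mk'] at h
    exact (le_antisymm hPR h) ▸ hPp)
  obtain ⟨q, U, hq, hUn, hUR, hU1, hUq⟩ := exists_pgroup_normal (R.map (QuotientGroup.mk' P)) hRP
  haveI := Fact.mk hq
  haveI := hUn
  set T : Subgroup G := U.comap (QuotientGroup.mk' P) with hT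
  have hqp : q ≠ p := by
    rintro rfl
    have hTp : IsPGroup q T := hUq.comap_of_ker_isPGroup _ (by rw [QuotientGroup.ker_mk']; exact hPp)
    have hTR : T ≤ R := fun x hx => by
      obtain ⟨r, hr, hrx⟩ := mem_map.mp (hUR (mem_comap.mp hx))
      have h : r⁻¹ * x ∈ P := QuotientGroup.eq.mp hrx
      simpa using R.mul_mem hr (hPR h)
    have hle : T ≤ P := hP.le_of_ge ⟨inferInstance, hTR, hTp⟩
      ((QuotientGroup.ker_mk' P).symm.le.trans (ker_le_comap _ _))
    refine hU1 (eq_bot_iff.mpr fun u hu => ?_)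
    obtain ⟨x, rfl⟩ := QuotientGroup.mk_surjective u
    rw [mem_bot, QuotientGroup.eq_one_iff]
    exact hle hu
  -- the prime divisors of `T`
  have hTprimes : ∀ t : ℕ, t.Prime → t ∣ Nat.card T → t = p ∨ t = q := by
    intro t ht hd
    haveI := Fact.mk ht
    obtain ⟨x, hx⟩ := exists_prime_orderOf_dvd_card' t hd
    by_cases hxP : (x : G) ∈ P
    · left
      obtain ⟨k, hk⟩ := hPp ⟨x, hxP⟩
      have hk' : (x : G) ^ p ^ k = 1 := congrArg Subtype.val hk
      have := orderOf_dvd_of_pow_eq_one hk'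
      rw [Subgroup.orderOf_coe, hx] at this
      exact (Nat.prime_dvd_prime_iff_eq ht hp).mp (ht.dvd_of_dvd_pow this)
    · right
      obtain ⟨k, hk⟩ := hUq ⟨QuotientGroup.mk' P (x : G), x.2⟩
      have h1 : orderOf (QuotientGroup.mk' P (x : G)) ∣ q ^ k :=
        orderOf_dvd_of_pow_eq_one (congrArg Subtype.val hk)
      have h2 : orderOf (QuotientGroup.mk' P (x : G)) ∣ t := by
        rw [← hx, ← Subgroup.orderOf_coe x]; exact orderOf_map_dvd _ _
      rcases (Nat.dvd_prime ht).mp h2 with h3 | h3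
      · exact absurd ((QuotientGroup.eq_one_iff _).mp (orderOf_eq_one_iff.mp h3)) hxP
      · rw [h3] at h1
        exact (Nat.prime_dvd_prime_iff_eq ht hq).mp (ht.dvd_of_dvd_pow h1)
  obtain ⟨Q⟩ : Nonempty (Sylow q T) := inferInstance
  set Q' : Subgroup G := (Q : Subgroup T).map T.subtype with hQ'
  have hFr : normalizer (Q' : Set G) ⊔ T = ⊤ := Sylow.normalizer_sup_eq_top Q
  have hqT : q ∣ Nat.card T := by
    obtain ⟨⟨u, hu⟩, hu1⟩ := Subgroup.ne_bot_iff_exists_ne_one.mp hU1
    obtain ⟨x, rfl⟩ := QuotientGroup.mk_surjective u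
    obtain ⟨k, hk⟩ := hUq ⟨_, hu⟩
    obtain ⟨j, -, hj⟩ := (Nat.dvd_prime_pow hq).mp (orderOf_dvd_of_pow_eq_one (congrArg Subtype.val hk))
    rcases j with _ | j
    · exact absurd (Subtype.ext (orderOf_eq_one_iff.mp (hj.trans (pow_zero q)))) hu1
    · have h1 : orderOf (QuotientGroup.mk' P x) ∣ orderOf x := orderOf_map_dvd _ x
      have h2 : q ∣ orderOf (QuotientGroup.mk' P x) := by
        show q ∣ orderOf (QuotientGroup.mk x : G ⧸ P)
        rw [hj, pow_succ]; exact dvd_mul_left q _
      exact (h2.trans h1).trans (T.orderOf_dvd_natCard hu)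
  have hQp : IsPGroup q Q' := Q.isPGroup'.map _
  haveI : Nontrivial Q' := (Subgroup.nontrivial_iff_ne_bot _).mpr (by
    rw [hQ', Ne, map_eq_bot_iff_of_injective _ T.subtype_injective]
    exact Q.ne_bot_of_dvd_card hqT)
  -- an element of order `q` in the centre of `Q'`
  obtain ⟨y, hyo⟩ : ∃ y : center Q', orderOf y = q := by
    haveI := hQp.center_nontrivial
    obtain ⟨k, hk⟩ := IsPGroup.iff_card.mp (hQp.to_subgroup (center Q'))
    refine exists_prime_orderOf_dvd_card' q ?_
    rcases k with _ | k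
    · have := Finite.one_lt_card (α := center Q')
      rw [hk, pow_zero] at this; omega
    · rw [hk, pow_succ]; exact dvd_mul_left q _
  set Y : G := ((y : Q') : G) with hY
  have hYo : orderOf Y = q := by rw [hY, Subgroup.orderOf_coe, Subgroup.orderOf_coe, hyo]
  -- the abelian `p`-group
  set A : Subgroup G := (center P).map P.subtype with hA
  haveI : A.Normal := ConjAct.normal_of_characteristic_of_normal
  haveI : IsMulCommutative A := Subgroup.map_isMulCommutative _ _
  have hAp : IsPGroup p A := (hPp.to_subgroup _).map _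
  have hA1 : A ≠ ⊥ := by
    haveI : Nontrivial P := (Subgroup.nontrivial_iff_ne_bot P).mpr hP1
    rw [Ne, hA, map_eq_bot_iff_of_injective _ P.subtype_injective]
    exact (Subgroup.nontrivial_iff_ne_bot _).mp hPp.center_nontrivial
  have hN : normalizer (A : Set G) = ⊤ := normalizer_eq_top_iff.mpr inferInstance
  have hfpf : ∀ (w : normalizer (A : Set G)) (t : ℕ), t.Prime → t ≠ p → orderOf (w : G) = t →
      ∀ a : A, A.normalizerMonoidHom w a = a → a = 1 := by
    intro w t ht htp hwo a ha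
    by_contra hne
    have hc : (w : G) * a * (w : G)⁻¹ = a := congrArg Subtype.val ha
    obtain ⟨k, hk⟩ := IsPGroup.iff_orderOf.mp hAp a
    rcases k with _ | k
    · exact hne (orderOf_eq_one_iff.mp (hk.trans (pow_zero p)))
    have h2 : orderOf ((a : G) ^ p ^ k) = p := by
      rw [← Subgroup.orderOf_coe] at hk
      rw [orderOf_pow_of_dvd (pow_ne_zero _ hp.ne_zero) (hk ▸ pow_dvd_pow p (Nat.le_succ k)), hk,
        pow_succ, Nat.mul_div_cancel_left _ (pow_pos hp.pos k)]
    have hc' : Commute (w : G) (a : G) := mul_inv_eq_iff_eq_mul.mp hc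
    exact htp (hG.eq_of_commute (hc'.pow_right _) ht hp hwo h2)
  -- no element of a third prime order normalises `Q'`
  have hno : ∀ (w : G), w ∈ normalizer (Q' : Set G) → (orderOf w).Prime → orderOf w = p ∨ orderOf w = q := by
    intro w hw hwp
    by_contra hc
    rw [not_or] at hc
    obtain ⟨hwnp, hwnq⟩ := hc
    -- the subgroup of order `q` of `Q'` is unique
    have hYQ : Y ∈ Q' := (y : Q').2
    have huniq : ∀ v ∈ Q', orderOf v = q → v ∈ zpowers Y := by
      intro v hv hvo
      by_contra hnv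
      have hcomm : Commute Y v := (congrArg Subtype.val (mem_center_iff.mp y.2 ⟨v, hv⟩) : v * Y = Y * v).symm
      refine hA1 (eq_bot_of_norms hp A hAp hq hqp hq (⟨Y, hN ▸ mem_top Y⟩) ⟨v, hN ▸ mem_top v⟩
        (by rw [← Subgroup.orderOf_coe]; exact hYo) ?_ ?_ ?_ (hfpf _ q hq hqp hYo) ?_)
      · intro h
        obtain ⟨i, hi⟩ := mem_zpowers_iff.mp h
        exact hnv (mem_zpowers_iff.mpr ⟨i, congrArg Subtype.val hi⟩)
      · refine mem_zpowers_iff.mpr ⟨1, Subtype.ext ?_⟩
        show Y ^ (1 : ℤ) = v * Y * v⁻¹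
        rw [zpow_one, hcomm.symm.eq, mul_inv_cancel_right]
      all_goals
        intro u hu
        obtain ⟨i, rfl⟩ := mem_zpowers_iff.mp hu
        have ho : orderOf (Y ^ i * v) = q := by
          refine orderOf_eq_prime ?_ (fun e => hnv ?_)
          · rw [(hcomm.zpow_left i).mul_pow, ← zpow_natCast (Y ^ i), ← zpow_mul, mul_comm i, zpow_mul,
              zpow_natCast, ← hYo, pow_orderOf_eq_one, one_zpow, one_mul, hYo, ← hvo, pow_orderOf_eq_one]
          · rw [eq_inv_of_mul_eq_one_right e]; exact inv_mem (zpow_mem (mem_zpowers Y) i)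
      · rw [← Subgroup.orderOf_coe]; exact ho
      · exact hfpf _ q hq hqp ho
    have hconj : w * Y * w⁻¹ ∈ zpowers Y := by
      refine huniq _ ((mem_normalizer_iff.mp hw Y).mp hYQ) ?_
      exact ((MulAut.conj w).orderOf_eq Y).trans hYo
    refine hA1 (eq_bot_of_norms hp A hAp hwp hqp hq (⟨Y, hN ▸ mem_top Y⟩) ⟨w, hN ▸ mem_top w⟩
        (by rw [← Subgroup.orderOf_coe]; exact hYo) ?_ ?_ ?_ (hfpf _ q hq hqp hYo) ?_)
    · intro h
      obtain ⟨i, hi⟩ := mem_zpowers_iff.mp h
      have hi' : Y ^ i = w := congrArg Subtype.val hi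
      refine hwnq ((Nat.prime_dvd_prime_iff_eq hwp hq).mp ?_)
      rw [← hi', ← hYo]
      exact orderOf_dvd_of_mem_zpowers (zpow_mem_zpowers Y i)
    · obtain ⟨i, hi⟩ := mem_zpowers_iff.mp hconj
      exact mem_zpowers_iff.mpr ⟨i, Subtype.ext hi⟩
    all_goals
      intro u hu
      obtain ⟨i, rfl⟩ := mem_zpowers_iff.mp hu
      have ho : orderOf (Y ^ i * w) = orderOf w := by
        have hcl : ∀ n : ℕ, (Y ^ i * w) ^ n * (w ^ n)⁻¹ ∈ zpowers Y := by
          intro n
          induction n with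
          | zero => simp
          | succ n ih =>
            have e : (Y ^ i * w) ^ (n + 1) * (w ^ (n + 1))⁻¹ =
                Y ^ i * (w * ((Y ^ i * w) ^ n * (w ^ n)⁻¹) * w⁻¹) := by
              rw [pow_succ', pow_succ']; group
            rw [e]
            obtain ⟨j, hj⟩ := mem_zpowers_iff.mp ih
            refine mul_mem (zpow_mem (mem_zpowers Y) i) ?_
            rw [← hj, ← conj_zpow]
            exact zpow_mem hconj j
        have hn1 : Y ^ i * w ≠ 1 := fun e => hwnq ((Nat.prime_dvd_prime_iff_eq hwp hq).mp (by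
          rw [eq_inv_of_mul_eq_one_right e, orderOf_inv, ← hYo]
          exact orderOf_dvd_of_mem_zpowers (zpow_mem_zpowers Y i)))
        have h1 : (Y ^ i * w) ^ orderOf w ∈ zpowers Y := by
          have := hcl (orderOf w)
          rwa [pow_orderOf_eq_one, inv_one, mul_one] at this
        refine (orderOf_eq_iff hwp.pos).mpr ⟨?_, fun m hm hm0 hm1 => ?_⟩
        · by_contra hne
          -- a nontrivial power in `⟨Y⟩` and an element outside: a mixed order
          have ho2 : orderOf ((Y ^ i * w) ^ orderOf w) = q :=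
            (hq.eq_one_or_self_of_dvd _ (hYo ▸ orderOf_dvd_of_mem_zpowers h1)).resolve_left
              (fun e => hne (orderOf_eq_one_iff.mp e))
          have hdq : q ∣ orderOf (Y ^ i * w) := ho2 ▸ orderOf_pow_dvd _
          refine hwnq ((hG.eq_of_dvd hwp hq ?_ hdq))
          by_contra hnd
          obtain ⟨j, hj⟩ := exists_pow_eq_self_of_coprime (x := Y ^ i * w)
            (hwp.coprime_iff_not_dvd.mpr hnd)
          have h2 : Y ^ i * w ∈ zpowers Y := by rw [← hj]; exact pow_mem h1 j
          have h3 : w ∈ zpowers Y := by simpa using mul_mem (inv_mem (zpow_mem (mem_zpowers Y) i)) h2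
          exact hwnq ((Nat.prime_dvd_prime_iff_eq hwp hq).mp (hYo ▸ orderOf_dvd_of_mem_zpowers h3))
        · have h2 := hcl m
          rw [hm1, one_mul, inv_mem_iff] at h2
          obtain ⟨j, hj⟩ := exists_pow_eq_self_of_coprime (x := w)
            ((hwp.coprime_iff_not_dvd.mpr (Nat.not_dvd_of_pos_of_lt hm0 hm)).symm)
          have h3 : w ∈ zpowers Y := by rw [← hj]; exact pow_mem h2 j
          exact hwnq ((Nat.prime_dvd_prime_iff_eq hwp hq).mp (hYo ▸ orderOf_dvd_of_mem_zpowers h3))
    · rw [← Subgroup.orderOf_coe]; exact ho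
    · exact hfpf _ (orderOf w) hwp hwnp ho
  -- so `G = N(Q') T` has only the primes `p` and `q`
  refine le_trans (Finset.card_le_card (t := {p, q}) fun t ht => ?_) Finset.card_le_two
  rw [Finset.mem_insert, Finset.mem_singleton]
  obtain ⟨ht1, ht2, -⟩ := Nat.mem_primeFactors.mp ht
  haveI := Fact.mk ht1
  have hdvd : Nat.card G ∣ Nat.card (normalizer (Q' : Set G)) * Nat.card T := by
    have h1 : T.index ∣ Nat.card (normalizer (Q' : Set G)) := by
      rw [← Subgroup.relIndex_top_right T, ← hFr, Subgroup.relIndex_sup_right]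
      exact Subgroup.relIndex_dvd_card T _
    rw [← T.card_mul_index, mul_comm]
    exact Nat.mul_dvd_mul_right h1 _
  rcases ht1.dvd_mul.mp (ht2.trans hdvd) with h | h
  · obtain ⟨w, hw⟩ := exists_prime_orderOf_dvd_card' t h
    rw [← Subgroup.orderOf_coe] at hw
    rw [← hw]
    exact hno w w.2 (hw.symm ▸ ht1)
  · exact hTprimes t ht1 h

end CfsgLib.EPPO
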